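import Cfsg.Agent.Lib.TwistedE6Fi22.Eval
import Cfsg.Agent.Lib.TwistedE6Involutions.Group
import Cfsg.Agent.S1696
import Cfsg.Prelude.Def_LieTwisted

/-!
`Fi₂₂` inside `²E₆(2)`: nine conjugates of a root involution satisfy the relations of `Y₃₃₂`, and only
scalars commute with all of them.
-/

set_option autoImplicit false
set_option linter.all false
set_option maxRecDepth 20000
set_option maxHeartbeats 1000000

namespace CfsgLib.TwistedE6Fi22

open Cfsg.Lie CfsgLib.Chevalley CfsgLib.TwistedE6Involutions Cfsg.Spor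

variable {K : Type*} [Field K] [CharP K 2] {w : K}

/-- The matrix on the numbered coordinates. -/
noncomputable def mm (K : Type*) [Field K] : GL chevE6.Idx K →* Matrix (Fin 78) (Fin 78) K :=
  (Matrix.reindexAlgEquiv K K e78).toMonoidHom.comp (Units.coeHom _)

omit [CharP K 2] in
theorem mm_apply (g : GL chevE6.Idx K) :
    mm K g = (g : Matrix chevE6.Idx chevE6.Idx K).submatrix e78.symm e78.symm := rfl

omit [CharP K 2] in
theorem mm_injective : Function.Injective (mm K) := fun a b h =>
  Units.ext ((Matrix.reindexAlgEquiv K K e78).injective h)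

/-- A generator. -/
noncomputable def G (w : K) (g : ℕ) : GL chevE6.Idx K :=
  ((genSpec.getD g []).map fun p => xG full.cert p.1 (par w p.2)).prod

theorem mm_xG (hw : Omega w) {r : ℕ} (hr : r < 72) (c : ℕ) :
    mm K (xG full.cert r (par w c)) = toM w (xp r c) := by
  rw [mm_apply, coe_xG, x_eq_xR chevE6 K (show r < chevE6.nroots from hr)]
  exact (toM_xp hw full.cert.wf ⟨r, hr⟩ c).symm

theorem xp_shaped (r c : ℕ) : shaped (xp r c) = true := by
  unfold xp
  split <;> simp [shaped, pk, bxor, cpl, plane, bone, bzero]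

theorem gT_ok : ∀ g < 12, gP g = gT g := by
  intro g hg
  interval_cases g <;> apply eq_of_beq
  exacts [gT_eval0, gT_eval1, gT_eval2, gT_eval3, gT_eval4, gT_eval5, gT_eval6, gT_eval7, gT_eval8, gT_eval9,
    gT_eval10, gT_eval11]

theorem spec_lt : genSpec.all (fun l => l.all fun p => decide (p.1 < 72)) = true := by decide +kernel

theorem shapes : (∀ g < 12, shaped (gT g) = true) ∧ (∀ x < 9, shaped (tT x) = true) ∧
    (∀ x < 9, shaped (tP x) = true) ∧ shaped certA = true ∧
    shaped certB = true ∧ shaped certPhi = true ∧ shaped certP = true ∧ shaped certQ = true := by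
  have h := tables_shaped
  simp only [Bool.and_eq_true, List.all_eq_true, List.mem_range] at h
  tauto

theorem mm_G (hw : Omega w) {g : ℕ} (hg : g < 12) : mm K (G w g) = toM w (gT g) := by
  rw [← gT_ok g hg, gP, (pprod_spec hw _ fun M hM => by
    obtain ⟨p, -, rfl⟩ := List.mem_map.1 hM; exact xp_shaped _ _).2, G, map_list_prod, List.map_map, List.map_map]
  refine congrArg List.prod (List.map_congr_left fun p hp => mm_xG hw ?_ _)
  have h := spec_lt
  simp only [List.all_eq_true, decide_eq_true_eq] at h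
  have hlen : g < genSpec.length := hg
  rw [List.getD_eq_getElem _ _ hlen] at hp
  exact h _ (List.getElem_mem hlen) p hp

theorem G_mem {g : ℕ} (hg : g < 12) : G w g ∈ twistedE6 K 2 := by
  refine Subgroup.subset_closure ⟨(genSpec.getD g []).map fun p => (p.1, par w p.2), ?_, ?_⟩
  · interval_cases g <;> simp only [genSpec, List.getD_cons_succ, List.getD_cons_zero, List.map_cons, List.map_nil]
    · exact Or.inl ⟨1, one_pow 2, 46, by simp [e6p2, e6m2, e6p4, e6m4], rfl⟩
    · exact Or.inl ⟨1, one_pow 2, 25, by simp [e6p2, e6m2, e6p4, e6m4], rfl⟩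
    · exact Or.inl ⟨1, one_pow 2, 39, by simp [e6p2, e6m2, e6p4, e6m4], rfl⟩
    · exact Or.inl ⟨1, one_pow 2, 32, by simp [e6p2, e6m2, e6p4, e6m4], rfl⟩
    · exact Or.inr ⟨1, (56, 36), by simp [e6p1, e6p6, e6m1, e6m6, e6p3, e6p5, e6m3, e6m5], by simp [par, pow_two]⟩
    · exact Or.inr ⟨w, (56, 36), by simp [e6p1, e6p6, e6m1, e6m6, e6p3, e6p5, e6m3, e6m5], by simp [par, pow_two]⟩
    · exact Or.inr ⟨1, (15, 35), by simp [e6p1, e6p6, e6m1, e6m6, e6p3, e6p5, e6m3, e6m5], by simp [par, pow_two]⟩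
    · exact Or.inr ⟨w, (15, 35), by simp [e6p1, e6p6, e6m1, e6m6, e6p3, e6p5, e6m3, e6m5], by simp [par, pow_two]⟩
    · exact Or.inr ⟨1, (42, 37), by simp [e6p1, e6p6, e6m1, e6m6, e6p3, e6p5, e6m3, e6m5], by simp [par, pow_two]⟩
    · exact Or.inr ⟨w, (42, 37), by simp [e6p1, e6p6, e6m1, e6m6, e6p3, e6p5, e6m3, e6m5], by simp [par, pow_two]⟩
    · exact Or.inr ⟨1, (29, 34), by simp [e6p1, e6p6, e6m1, e6m6, e6p3, e6p5, e6m3, e6m5], by simp [par, pow_two]⟩
    · exact Or.inr ⟨w, (29, 34), by simp [e6p1, e6p6, e6m1, e6m6, e6p3, e6p5, e6m3, e6m5], by simp [par, pow_two]⟩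
  · rw [wordMat_eq_prod full.cert, G, List.map_map]
    rfl

theorem tW_lt : tW.all (fun l => l.all fun g => decide (g < 12)) = true := by decide +kernel

theorem tP_ok : ∀ x < 9, pprod ((tW.getD x []).map gT) = tP x := by
  intro x hx
  interval_cases x <;> apply eq_of_beq
  exacts [tP_eval0, tP_eval1, tP_eval2, tP_eval3, tP_eval4, tP_eval5, tP_eval6, tP_eval7, tP_eval8]

theorem tT_ok : ∀ x < 9, pmul (tT x) (tP x) = pmul (tP x) (gT 0) := by
  intro x hx
  interval_cases x <;> apply eq_of_beq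
  exacts [tT_eval0, tT_eval1, tT_eval2, tT_eval3, tT_eval4, tT_eval5, tT_eval6, tT_eval7, tT_eval8]

/-- The product of a word. -/
noncomputable def P (w : K) (x : ℕ) : GL chevE6.Idx K := ((tW.getD x []).map (G w)).prod

/-- The nine elements: conjugates of `x₄₆(1)`. -/
noncomputable def N (w : K) (x : ℕ) : GL chevE6.Idx K := P w x * G w 0 * (P w x)⁻¹

theorem word_lt {x : ℕ} (hx : x < 9) : ∀ g ∈ tW.getD x [], g < 12 := by
  have h := tW_lt
  simp only [List.all_eq_true, decide_eq_true_eq] at h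
  rw [List.getD_eq_getElem _ _ (show x < tW.length from hx)]
  exact h _ (List.getElem_mem _)

theorem N_spec (hw : Omega w) {x : ℕ} (hx : x < 9) : N w x ∈ twistedE6 K 2 ∧ mm K (N w x) = toM w (tT x) := by
  have hlt := word_lt hx
  have hP : P w x ∈ twistedE6 K 2 := Subgroup.list_prod_mem _ fun M hM => by
    obtain ⟨g, hg, rfl⟩ := List.mem_map.1 hM; exact G_mem (hlt g hg)
  have hG0 := G_mem (w := w) (show 0 < 12 by norm_num)
  refine ⟨mul_mem (mul_mem hP hG0) (inv_mem hP), ?_⟩
  have mP : mm K (P w x) = toM w (tP x) := by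
    rw [← tP_ok x hx, (pprod_spec hw _ fun M hM => by
      obtain ⟨g, hg, rfl⟩ := List.mem_map.1 hM; exact shapes.1 g (hlt g hg)).2, P, map_list_prod, List.map_map,
      List.map_map]
    exact congrArg List.prod (List.map_congr_left fun g hg => mm_G hw (hlt g hg))
  have key : toM w (tT x) * mm K (P w x) = mm K (P w x * G w 0) := by
    rw [map_mul, mP, mm_G hw (show 0 < 12 by norm_num), ← toM_pmul hw _ _ (shapes.2.2.1 x hx),
      ← toM_pmul hw _ _ (shapes.1 0 (by norm_num)), tT_ok x hx]
  rw [N, map_mul, ← key, mul_assoc, ← map_mul, mul_inv_cancel, map_one, mul_one]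

theorem G0_eq : G w 0 = xG full.cert 46 1 := by simp [G, genSpec, par]

theorem N_d : N w 3 = xG full.cert 46 1 := by
  rw [N, show P w 3 = 1 from rfl, one_mul, inv_one, mul_one, G0_eq]

theorem N_sq (hw : Omega w) {x : ℕ} (hx : x < 9) : N w x * N w x = 1 := by
  have h : G w 0 * G w 0 = 1 := by rw [G0_eq, xG_mul, CharTwo.add_self_eq_zero, xG_zero]
  rw [N, show P w x * G w 0 * (P w x)⁻¹ * (P w x * G w 0 * (P w x)⁻¹) = P w x * (G w 0 * G w 0) * (P w x)⁻¹ by group,
    h, mul_one, mul_inv_cancel]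

attribute [irreducible] N

/-- The number of a node. -/
def gidx : Fi22.Gen → ℕ
  | .a => 0 | .b => 1 | .c => 2 | .d => 3 | .e => 4 | .f => 5 | .g => 6 | .h => 7 | .i => 8

theorem gidx_lt (x : Fi22.Gen) : gidx x < 9 := by cases x <;> decide

theorem pair_cases (x y : Fi22.Gen) :
    (x = y ∧ coxLabel Fi22.edges x y = 1) ∨
    (((gidx x, gidx y) ∈ nonEdgeList ∨ (gidx y, gidx x) ∈ nonEdgeList) ∧ coxLabel Fi22.edges x y = 2) ∨
    (((gidx x, gidx y) ∈ edgeList ∨ (gidx y, gidx x) ∈ edgeList) ∧ coxLabel Fi22.edges x y = 3) := by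
  cases x <;> cases y <;> decide

theorem mm_prod (hw : Omega w) (l : List ℕ) (hl : ∀ x ∈ l, x < 9) :
    mm K (l.map (N w)).prod = toM w (pprod (l.map tT)) := by
  rw [(pprod_spec hw _ fun M hM => by obtain ⟨x, hx, rfl⟩ := List.mem_map.1 hM; exact shapes.2.1 x (hl x hx)).2,
    map_list_prod, List.map_map, List.map_map]
  exact congrArg List.prod (List.map_congr_left fun x hx => (N_spec hw (hl x hx)).2)

theorem toM_mul_tT (hw : Omega w) {x y : ℕ} (hx : x < 9) (hy : y < 9) :
    toM w (pmul (tT x) (tT y)) = mm K (N w x * N w y) := by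
  rw [toM_pmul hw _ _ (shapes.2.1 y hy), map_mul, (N_spec hw hx).2, (N_spec hw hy).2]

theorem list_bounds : (nonEdgeList.all fun p => decide (p.1 < 9 ∧ p.2 < 9)) &&
    (edgeList.all fun p => decide (p.1 < 9 ∧ p.2 < 9)) = true := by decide +kernel

theorem N_comm (hw : Omega w) {p : ℕ × ℕ} (hp : p ∈ nonEdgeList) : N w p.1 * N w p.2 = N w p.2 * N w p.1 := by
  have h := nonEdge_eval
  have hb := list_bounds
  simp only [Bool.and_eq_true, List.all_eq_true, decide_eq_true_eq, beq_iff_eq] at h hb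
  obtain ⟨hx, hy⟩ := hb.1 p hp
  apply mm_injective
  rw [← toM_mul_tT hw hx hy, ← toM_mul_tT hw hy hx, h p hp]

theorem N_braid (hw : Omega w) {p : ℕ × ℕ} (hp : p ∈ edgeList) :
    N w p.1 * N w p.2 * N w p.1 = N w p.2 * N w p.1 * N w p.2 := by
  have h := edge_eval
  have hb := list_bounds
  simp only [Bool.and_eq_true, List.all_eq_true, decide_eq_true_eq, beq_iff_eq] at h hb
  obtain ⟨hx, hy⟩ := hb.2 p hp
  have h1 : shaped (pmul (tT p.1) (tT p.2)) = true := shaped_pmul (shapes.2.1 _ hx)
  apply mm_injective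
  rw [map_mul, ← toM_mul_tT hw hx hy, (N_spec hw hx).2, ← toM_pmul hw _ _ (shapes.2.1 _ hx), h p hp,
    toM_pmul hw _ _ h1, toM_mul_tT hw hx hy, ← (N_spec hw hy).2, ← map_mul, ← mul_assoc]

theorem pow_two_of_comm {H : Type*} [Group H] {a b : H} (ha : a * a = 1) (hb : b * b = 1)
    (h : a * b = b * a) : (a * b) ^ 2 = 1 := by
  rw [pow_two]
  nth_rw 2 [h]
  rw [mul_assoc, ← mul_assoc b, hb, one_mul, ha]

theorem pow_three_of_braid {H : Type*} [Group H] {a b : H} (ha : a * a = 1) (hb : b * b = 1)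
    (h : a * b * a = b * a * b) : (a * b) ^ 3 = 1 := by
  calc (a * b) ^ 3 = a * b * a * (b * a * b) := by simp only [pow_succ, pow_zero, one_mul, mul_assoc]
    _ = b * a * b * (b * a * b) := by rw [h]
    _ = b * (a * (b * b) * a) * b := by simp only [mul_assoc]
    _ = 1 := by rw [hb, mul_one, ha, mul_one, hb]

theorem pair_rel (hw : Omega w) (x y : Fi22.Gen) :
    (N w (gidx x) * N w (gidx y)) ^ coxLabel Fi22.edges x y = 1 := by
  have hx := N_sq hw (gidx_lt x)
  have hy := N_sq hw (gidx_lt y)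
  rcases pair_cases x y with ⟨rfl, e⟩ | ⟨hp, e⟩ | ⟨hp, e⟩ <;> rw [e]
  · rw [pow_one, hx]
  · refine pow_two_of_comm hx hy ?_
    rcases hp with hp | hp
    · exact N_comm hw hp
    · exact (N_comm hw hp).symm
  · refine pow_three_of_braid hx hy ?_
    rcases hp with hp | hp
    · exact N_braid hw hp
    · exact (N_braid hw hp).symm

theorem sq_step (hw : Omega w) {u : GL chevE6.Idx K} {A B : PM} (hA : shaped A = true) (h : pmul A A = B)
    (hu : mm K u = toM w A) : mm K (u * u) = toM w B := by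
  rw [map_mul, hu, ← h, toM_pmul hw _ _ hA]

theorem pow_relator (hw : Omega w) (l : List ℕ) (hl : ∀ x ∈ l, x < 9) {A0 A1 A2 A3 : PM} (k : ℕ)
    (h0 : (pprod (l.map tT) == A0) = true)
    (hs : ((pmul A0 A0 == A1) && (pmul A1 A1 == A2) && (pmul A2 A2 == A3)) = true)
    (hk : (k = 9 ∧ (pmul A3 A0 == bone) = true) ∨ (k = 10 ∧ (pmul A3 A1 == bone) = true)) :
    (l.map (N w)).prod ^ k = 1 := by
  simp only [Bool.and_eq_true, beq_iff_eq] at hs h0 hk
  obtain ⟨⟨e1, e2⟩, e3⟩ := hs
  set u := (l.map (N w)).prod with hu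
  have s0 : shaped A0 = true := by
    rw [← h0]
    exact (pprod_spec hw _ fun M hM => by
      obtain ⟨x, hx, rfl⟩ := List.mem_map.1 hM; exact shapes.2.1 x (hl x hx)).1
  have s1 : shaped A1 = true := e1 ▸ shaped_pmul s0
  have s2 : shaped A2 = true := e2 ▸ shaped_pmul s1
  have s3 : shaped A3 = true := e3 ▸ shaped_pmul s2
  have m0 : mm K u = toM w A0 := by rw [hu, mm_prod hw l hl, h0]
  have m1 := sq_step hw s0 e1 m0
  have m2 := sq_step hw s1 e2 m1
  have m3 := sq_step hw s2 e3 m2
  apply mm_injective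
  rcases hk with ⟨rfl, e⟩ | ⟨rfl, e⟩
  · rw [show u ^ 9 = u * u * (u * u) * (u * u * (u * u)) * u by simp only [pow_succ, pow_zero, one_mul, mul_assoc],
      map_mul, m3, m0, ← toM_pmul hw _ _ s0, e, toM_bone, map_one]
  · rw [show u ^ 10 = u * u * (u * u) * (u * u * (u * u)) * (u * u) by
      simp only [pow_succ, pow_zero, one_mul, mul_assoc],
      map_mul, m3, m1, ← toM_pmul hw _ _ s1, e, toM_bone, map_one]

theorem rels (hw : Omega w) : ∀ r ∈ coxRelators Fi22.edges ∪ {r | r ∈ Fi22.extra},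
    FreeGroup.lift (fun x => N w (gidx x)) r = 1 := by
  rintro r (⟨x, -, y, -, rfl⟩ | hr)
  · rw [map_pow, map_mul, FreeGroup.lift_apply_of, FreeGroup.lift_apply_of]
    exact pair_rel hw x y
  · simp only [Fi22.extra, Set.mem_setOf_eq, List.mem_cons, List.not_mem_nil, or_false] at hr
    have e0 := pow_relator hw [3, 2, 1, 3, 4, 5, 3, 7, 8] (by decide) 10 pw0_base pw0_sq (Or.inr ⟨rfl, pw0_last⟩)
    have e1 := pow_relator hw [0, 1, 2, 3, 4, 5, 7] (by decide) 9 pw1_base pw1_sq (Or.inl ⟨rfl, pw1_last⟩)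
    have e2 := pow_relator hw [1, 2, 3, 4, 5, 6, 7] (by decide) 9 pw2_base pw2_sq (Or.inl ⟨rfl, pw2_last⟩)
    rcases hr with rfl | rfl | rfl <;>
      simp only [map_pow, map_mul, FreeGroup.lift_apply_of, gidx, List.map_cons, List.map_nil, List.prod_cons,
        List.prod_nil, mul_one, mul_assoc] at e0 e1 e2 ⊢
    · exact e0
    · exact e1
    · exact e2

/-- The map from `Fi₂₂`. -/
noncomputable def phi (hw : Omega w) : Fi22 →* GL chevE6.Idx K := PresentedGroup.toGroup (rels hw)

theorem phi_gen (hw : Omega w) (x : Fi22.Gen) : phi hw (PresentedGroup.of x) = N w (gidx x) :=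
  PresentedGroup.toGroup.of _

theorem phi_injective (hw : Omega w) : Function.Injective (phi hw) := by
  haveI : IsSimpleGroup Fi22 := Cfsg.Agent.S1696.result.1
  rcases (phi hw).normal_ker.eq_bot_or_eq_top with h | h
  · exact (MonoidHom.ker_eq_bot_iff _).1 h
  · exfalso
    have h3 : phi hw (PresentedGroup.of Fi22.Gen.d) = 1 := MonoidHom.mem_ker.1 (h ▸ Subgroup.mem_top _)
    rw [phi_gen, show gidx Fi22.Gen.d = 3 from rfl, N_d] at h3
    exact one_ne_zero (xG_injective full.cert (show (46 : ℕ) < chevE6.nroots by decide)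
      (h3.trans (xG_zero full.cert 46).symm))

theorem phi_mem (hw : Omega w) (y : Fi22) : phi hw y ∈ twistedE6 K 2 := by
  refine PresentedGroup.generated_by _ ((twistedE6 K 2).comap (phi hw)) (fun x => ?_) y
  rw [Subgroup.mem_comap, phi_gen]
  exact (N_spec hw (gidx_lt x)).1

/-- Commuting with every element that is a combination of the nine. -/
theorem certA_comm (hw : Omega w) (C : Matrix (Fin 78) (Fin 78) K)
    (hC : ∀ x < 9, Commute C (toM w (tT x))) : Commute C (toM w certA) := by
  rw [← eq_of_beq certA_eval]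
  have hlt : certWords.all (fun l => l.all fun x => decide (x < 9)) = true := by decide +kernel
  simp only [List.all_eq_true, decide_eq_true_eq] at hlt
  revert hlt
  generalize certWords = L
  intro hlt
  suffices h : shaped ((L.map fun l => pprod (l.map tT)).foldr padd (bzero 78)) = true ∧
      Commute C (toM w ((L.map fun l => pprod (l.map tT)).foldr padd (bzero 78))) from h.2
  induction L with
  | nil => exact ⟨by simp [shaped, bzero], by simp [toM_bzero]⟩
  | cons l L ih =>
    obtain ⟨i1, i2⟩ := ih fun m hm => hlt m (List.mem_cons_of_mem _ hm)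
    obtain ⟨p1, p2⟩ := pprod_spec (K := K) hw (l.map tT) fun M hM => by
      obtain ⟨x, hx, rfl⟩ := List.mem_map.1 hM; exact shapes.2.1 x (hlt l (by simp) x hx)
    simp only [shaped, beq_iff_eq] at i1 p1
    refine ⟨by simp [shaped, padd, bxor, i1, p1], ?_⟩
    rw [List.map_cons, List.foldr_cons, toM_padd _ _ (by omega), p2, List.map_map]
    refine Commute.add_right (Commute.list_prod_right _ _ fun M hM => ?_) i2
    obtain ⟨x, hx, rfl⟩ := List.mem_map.1 hM
    exact hC x (hlt l (by simp) x hx)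

theorem bzero_getD (n i : ℕ) : (bzero n).getD i 0 = 0 := by
  rcases lt_or_ge i n with h | h <;>
    simp [bzero, List.getD_eq_getElem?_getD, List.getElem?_replicate, h, not_lt.2, h]

theorem toM_single (a : ℕ) : toM w [a] = toM w (a :: bzero 77) := by
  ext i j
  simp only [toM, Matrix.of_apply]
  rcases i with ⟨i, hi⟩
  rcases i with _ | i
  · rfl
  · rw [List.getD_cons_succ, List.getD_cons_succ, bzero_getD, List.getD_nil]

/-- Only scalars commute with the nine elements. -/
theorem scalar_of_commute (hw : Omega w) (C : Matrix (Fin 78) (Fin 78) K)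
    (hC : ∀ x < 9, Commute C (toM w (tT x))) : ∃ c : K, C = c • 1 := by
  obtain ⟨-, hTs, -, hA, hB, hF, hP, hQ⟩ := shapes
  have hU : shaped certU = true := by simp [shaped, certU, bzero]
  have hUA : toM w certU * toM w certA = 0 := by
    rw [certU, ← toM_single, ← toM_pmul hw _ _ hA, eq_of_beq certU_kills]
    exact toM_bzero 1
  have hAB : toM w certA * toM w certB + toM w certPhi * toM w certU = 1 := by
    have e := eq_of_beq certB_eval
    rw [← toM_pmul hw _ _ hB, e,
      toM_padd _ _ (by simp [bone, pmul, shaped] at hF ⊢; omega), toM_bone, toM_pmul hw _ _ hU,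
      add_assoc, ← two_smul K (_ * _), CharTwo.two_eq_zero, zero_smul, add_zero]
  have hU0 : ∀ i : Fin 78, i ≠ 0 → ∀ j, toM w certU i j = 0 := by
    rintro ⟨i, hi⟩ hne j
    rcases i with _ | i
    · exact absurd rfl hne
    · simp only [toM, certU, Matrix.of_apply, List.getD_cons_succ, bzero_getD, Nat.zero_testBit, bitK]
      simp
  have hF0 : ∀ i j : Fin 78, j ≠ 0 → toM w certPhi i j = 0 := by
    intro i j hj
    have h := certPhi_col
    simp only [List.all_eq_true, List.mem_range, Bool.and_eq_true, decide_eq_true_eq] at h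
    obtain ⟨a, b⟩ := h i i.isLt
    have hj0 : (j : ℕ) ≠ 0 := fun e => hj (Fin.ext e)
    have t1 : (certPhi.getD i 0).testBit j = false := by
      have e := Nat.testBit_lt_two_pow (i := (j : ℕ)) (a.trans_le (show 2 ≤ 2 ^ (j : ℕ) from Nat.le_self_pow hj0 2))
      rwa [Nat.testBit_mod_two_pow, decide_eq_true j.isLt, Bool.true_and] at e
    have t2 : (certPhi.getD i 0).testBit (78 + j) = false :=
      Nat.testBit_lt_two_pow (b.trans_le (Nat.pow_le_pow_right (by norm_num) (by omega)))
    simp only [toM, Matrix.of_apply, t1, t2, bitK]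
    simp
  set U := toM w certU
  set Ph := toM w certPhi
  set M := U * C * Ph with hM
  set c := M 0 0
  have hUC : U * C = c • U := by
    have e : U * C = M * U := by
      have hz : U * C * toM w certA = 0 := by
        rw [mul_assoc, (certA_comm hw C hC).eq, ← mul_assoc, hUA, zero_mul]
      calc U * C = U * C * (toM w certA * toM w certB + Ph * U) := by rw [hAB, mul_one]
        _ = M * U := by rw [mul_add, ← mul_assoc, hz, zero_mul, zero_add, hM, mul_assoc (U * C)]
    rw [e]
    ext i j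
    rw [Matrix.mul_apply, Finset.sum_eq_single (0 : Fin 78) (fun k _ hk => by rw [hU0 k hk, mul_zero]) (by simp),
      Matrix.smul_apply, smul_eq_mul]
    by_cases hi : i = 0
    · rw [hi]
    · rw [hU0 i hi j, show M i 0 = 0 by
        rw [hM, mul_assoc, Matrix.mul_apply]
        exact Finset.sum_eq_zero fun k _ => by rw [hU0 i hi, zero_mul], zero_mul, mul_zero]
  have hrow : ∀ j < 78, toM w [certP.getD j 0] * C = c • toM w [certP.getD j 0] := by
    intro j
    induction j using Nat.strong_induction_on with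
    | _ j ih =>
      intro hj
      rcases j with _ | j
      · have e : toM w [certP.getD 0 0] = U := toM_single _
        rw [e]; exact hUC
      · have h := certSteps_eval
        have hl := certSteps_lt
        simp only [List.all_eq_true, List.mem_range, beq_iff_eq, decide_eq_true_eq] at h hl
        obtain ⟨hx, hi⟩ := hl j (by omega)
        rw [← h j (by omega), toM_pmul hw _ _ (hTs _ hx), mul_assoc, ← (hC _ hx).eq, ← mul_assoc,
          ih _ (by omega) (by omega), Matrix.smul_mul]
  refine ⟨c, ?_⟩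
  have hPC : toM w certP * C = c • toM w certP := by
    ext i k
    have hr : ∀ l, toM w [certP.getD i 0] 0 l = toM w certP i l := fun l => rfl
    have e := congrFun (congrFun (hrow i i.isLt) 0) k
    rw [Matrix.mul_apply, Matrix.smul_apply] at e ⊢
    simpa only [hr] using e
  calc C = toM w (pmul certQ certP) * C := by rw [eq_of_beq certQ_eval, toM_bone, one_mul]
    _ = c • toM w (pmul certQ certP) := by
      rw [toM_pmul hw _ _ hP, mul_assoc, hPC, Matrix.mul_smul]
    _ = c • 1 := by rw [eq_of_beq certQ_eval, toM_bone]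

theorem comm_of_centralises (hw : Omega w) {g : GL chevE6.Idx K} (hg : ∀ y : Fi22, Commute g (phi hw y))
    (x : GL chevE6.Idx K) : Commute g x := by
  obtain ⟨c, hc⟩ := scalar_of_commute hw (mm K g) fun n hn => by
    obtain ⟨z, rfl⟩ : ∃ z, gidx z = n := by
      interval_cases n
      exacts [⟨.a, rfl⟩, ⟨.b, rfl⟩, ⟨.c, rfl⟩, ⟨.d, rfl⟩, ⟨.e, rfl⟩, ⟨.f, rfl⟩, ⟨.g, rfl⟩, ⟨.h, rfl⟩, ⟨.i, rfl⟩]
    rw [← (N_spec hw hn).2, ← phi_gen hw]
    exact (hg _).map (mm K)
  apply mm_injective
  rw [map_mul, map_mul, hc, Matrix.smul_mul, Matrix.mul_smul, one_mul, mul_one]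

end CfsgLib.TwistedE6Fi22
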