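import Cfsg.Agent.Lib.TwistedE6Fi22.Embed
import Cfsg.Agent.Lib.TwistedE6F4.Nonconj
import Cfsg.Agent.Lib.SporadicOut.Fi22

/-!
Three pairwise non-conjugate subgroups `Fi₂₂` of `²E₆(2)`.
-/

set_option autoImplicit false
set_option linter.all false

namespace CfsgLib.TwistedE6Fi22

open Cfsg.Lie CfsgLib.TwistedE6Involutions CfsgLib.TwistedE6F4 Cfsg.Spor

variable {K : Type*} [Field K] [CharP K 2]

theorem omega_of_order {w : Kˣ} (hw : orderOf w = 3) : Omega (w : K) := by
  refine ⟨?_⟩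
  have h3 : (w : K) ^ 3 = 1 := by
    rw [← Units.val_pow_eq_pow_val, ← hw, pow_orderOf_eq_one, Units.val_one]
  have h1 : (w : K) - 1 ≠ 0 := fun h => by
    have : w = 1 := Units.ext (by simpa [sub_eq_zero] using h)
    simp [this] at hw
  have h : ((w : K) - 1) * ((w : K) * w + w + 1) = 0 := by linear_combination h3
  linear_combination ((mul_eq_zero.1 h).resolve_left h1) - ((w : K) + 1) * CharTwo.two_eq_zero (R := K)

/-- An automorphism of `Fi₂₂` squares to an inner one. -/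
theorem auto_sq_inner (α : MulAut Fi22) : ∃ g : Fi22, MulAut.conj g = α * α := by
  have h : Nat.card (Cfsg.Out Fi22) = 2 := CfsgLib.SporadicOut.Fi22.natCard_out_fi22G
  haveI : Finite (Cfsg.Out Fi22) := Nat.finite_of_card_ne_zero (by omega)
  have h2 : (QuotientGroup.mk (α * α) : Cfsg.Out Fi22) = 1 := by
    rw [QuotientGroup.mk_mul, ← pow_two, ← h, pow_card_eq_one']
  exact MonoidHom.mem_range.1 ((QuotientGroup.eq_one_iff _).1 h2)

variable [Fintype K] {σ : K →+* K} (S : Setting σ 2)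
include S

theorem no_normalize_fi22 {w : Kˣ} (hcard : Nat.card Kˣ = 3) (hw : orderOf w = 3) {m : ℤ} (hm : ¬ (3 : ℤ) ∣ m)
    {g : GL chevE6.Idx K} (hg : g ∈ twistedE6 K 2)
    (hN : ∀ y : Fi22, ∃ z, phi (omega_of_order hw) z =
      dW w m * g * phi (omega_of_order hw) y * (dW w m * g)⁻¹) : False := by
  have hw3 : w ^ (3 : ℤ) = 1 := by
    rw [show (3 : ℤ) = ((orderOf w : ℕ) : ℤ) by rw [hw]; rfl, zpow_natCast, pow_orderOf_eq_one]
  set f := phi (omega_of_order hw) with hf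
  have hinj : Function.Injective f := phi_injective _
  set n := dW w m * g with hn
  choose z hz using hN
  let a : Fi22 →* Fi22 :=
    { toFun := z
      map_one' := hinj (by rw [hz, map_one]; group)
      map_mul' := fun p q => hinj (by rw [map_mul, hz, hz, hz, map_mul]; group) }
  have ha : Function.Injective a := fun p q e => hinj (by
    have := congrArg f e
    simpa [a, hz] using this)
  haveI : Finite Fi22 := Nat.finite_of_card_ne_zero (by
    rw [Cfsg.Agent.S1696.result.2]; norm_num)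
  let α : MulAut Fi22 := MulEquiv.ofBijective a (Finite.injective_iff_bijective.1 ha)
  obtain ⟨h, hh⟩ := auto_sq_inner α
  have key : ∀ y, Commute ((f h)⁻¹ * (n * n)) (f y) := by
    intro y
    have e : z (z y) = h * y * h⁻¹ := (DFunLike.congr_fun hh y).symm
    have e2 := congrArg f e
    rw [hz, hz, map_mul, map_mul, map_inv] at e2
    show (f h)⁻¹ * (n * n) * f y = f y * ((f h)⁻¹ * (n * n))
    calc (f h)⁻¹ * (n * n) * f y = (f h)⁻¹ * (n * (n * f y * n⁻¹) * n⁻¹) * (n * n) := by group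
      _ = (f h)⁻¹ * (f h * f y * (f h)⁻¹) * (n * n) := by rw [e2]
      _ = f y * ((f h)⁻¹ * (n * n)) := by group
  have hall := comm_of_centralises (omega_of_order hw) key
  have hm2 : ¬ (3 : ℤ) ∣ m + m := by omega
  set g' := (dW w (m + m))⁻¹ * (f h)⁻¹ * dW w (m + m) * ((dW w m)⁻¹ * g * dW w m) * g with hg'
  have hg'G : g' ∈ twistedE6 K 2 := by
    refine mul_mem (mul_mem ?_ ?_) hg
    · have := CfsgLib.TwistedE6F4.dW_norm S hw3 (-(m + m)) _ (inv_mem (phi_mem (omega_of_order hw) h))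
      rwa [← dW_inv, inv_inv] at this
    · have := CfsgLib.TwistedE6F4.dW_norm S hw3 (-m) _ hg
      rwa [← dW_inv, inv_inv] at this
  have e : dW w (m + m) * g' = (f h)⁻¹ * (n * n) := by
    rw [hg', ← dW_mul, hn]; group
  refine no_normalize S hcard hw hm2 hg'G fun x hx => ?_
  rw [e, (hall x).eq, mul_inv_cancel_right]
  exact hx

theorem exists_three_fi22 {w : Kˣ} (hcard : Nat.card Kˣ = 3) (hw : orderOf w = 3) :
    ∃ H : Fin 3 → Subgroup (twistedE6 K 2), (∀ i, IsoFi22 (H i)) ∧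
      (∀ i j, i ≠ j → ∀ g : twistedE6 K 2, (H i).map (MulAut.conj g).toMonoidHom ≠ H j) := by
  have hw3 : w ^ (3 : ℤ) = 1 := by
    rw [show (3 : ℤ) = ((orderOf w : ℕ) : ℤ) by rw [hw]; rfl, zpow_natCast, pow_orderOf_eq_one]
  set f := phi (omega_of_order hw) with hf
  let φ : Fin 3 → (Fi22 →* twistedE6 K 2) := fun i =>
    ((MulAut.conj (dW w (i : ℕ))).toMonoidHom.comp f).codRestrict (twistedE6 K 2) fun x =>
      dW_norm S hw3 _ _ (phi_mem _ x)
  have hφ : ∀ i x, (φ i x : GL chevE6.Idx K) = dW w (i : ℕ) * f x * (dW w (i : ℕ))⁻¹ := fun i x => rfl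
  have hinj : ∀ i, Function.Injective (φ i) := fun i a b e => phi_injective (omega_of_order hw) (by
    simpa [hφ] using congrArg Subtype.val e)
  refine ⟨fun i => (φ i).range, fun i => ⟨(MonoidHom.ofInjective (hinj i)).symm⟩, fun i j hij g he => ?_⟩
  have hm : ¬ (3 : ℤ) ∣ ((i : ℕ) : ℤ) - ((j : ℕ) : ℤ) := by
    have := i.isLt; have := j.isLt; have : (i : ℕ) ≠ j := fun e => hij (Fin.ext e); omega
  refine no_normalize_fi22 S hcard hw hm
    (g := dW w (-((i : ℕ) : ℤ)) * (g : GL chevE6.Idx K) * (dW w (-((i : ℕ) : ℤ)))⁻¹) (dW_norm S hw3 _ _ g.2) ?_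
  intro x
  rw [← hf]
  have hx : MulAut.conj g (φ i x) ∈ (φ j).range := by
    simp only at he
    rw [← he]; exact Subgroup.mem_map_of_mem _ ⟨x, rfl⟩
  obtain ⟨x', hx'⟩ := hx
  refine ⟨x', ?_⟩
  have e := congrArg Subtype.val hx'
  rw [hφ, MulAut.conj_apply, Subgroup.coe_mul, Subgroup.coe_mul, Subgroup.coe_inv, hφ] at e
  have e2 : f x' = (dW w (j : ℕ))⁻¹ * ((g : GL chevE6.Idx K) * (dW w (i : ℕ) * f x * (dW w (i : ℕ))⁻¹) *
      (g : GL chevE6.Idx K)⁻¹) * dW w (j : ℕ) := by rw [← e]; group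
  rw [e2, sub_eq_neg_add, ← dW_mul, ← dW_inv, ← dW_inv]
  group

end CfsgLib.TwistedE6Fi22
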